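import Mathlib
import Cfsg.Agent.Lib.Helper70.HH.S3786Defs
import Cfsg.Agent.Lib.Helper50.HH.S3789Key
import Cfsg.Agent.Lib.Helper63.PLength
import Cfsg.Agent.Lib.Helper69.PSolvable

/-!
# S3786, packages (K1) `KeyA` and (K2) `KeyB` (helper47)

The key steps of parts (a) and (b) of the Hall–Higman bound of the `p`-length by the exponent of
a Sylow `p`-subgroup, derived from the packages `LinNZ`, `ModA`, `ModB`, `LemSylQuot`, `LemPLift`
of `Cfsg.Agent.Lib.Helper70.HH86`.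
-/

set_option autoImplicit false

namespace Cfsg.Agent.Lib.Helper47.HH86

open Cfsg Cfsg.Agent.Lib.Helper70.HH86

universe u

/-- A lift of a `p`-element of `G / O_p(G)` is a `p`-element. -/
theorem pElt_of_mk_pCore {p : ℕ} {G : Type u} [Group G] (x : G)
    (hx : ∃ k : ℕ, (QuotientGroup.mk x : G ⧸ Cfsg.pCore p G) ^ p ^ k = 1) :
    ∃ k : ℕ, x ^ p ^ k = 1 := by
  obtain ⟨k, hk⟩ := hx
  have h1 : x ^ p ^ k ∈ Cfsg.pCore p G := by
    rw [← QuotientGroup.eq_one_iff, QuotientGroup.mk_pow]; exact hk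
  obtain ⟨j, hj⟩ := (Cfsg.Agent.Lib.Helper63.pCore_isPGroup' p G) ⟨_, h1⟩
  have hj' : (x ^ p ^ k) ^ p ^ j = 1 := by
    have := congrArg Subtype.val hj
    simpa using this
  exact ⟨k + j, by rw [pow_add, pow_mul]; exact hj'⟩

/-- If the `p`-elements of `G` have order dividing `p ^ n`, so have those of `G / O_p(G)`. -/
theorem expLE_quot_pCore {p : ℕ} {G : Type u} [Group G] (n : ℕ) (h : ExpLE p n G) :
    ExpLE p n (G ⧸ Cfsg.pCore p G) := by
  intro g hg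
  obtain ⟨x, rfl⟩ := QuotientGroup.mk_surjective g
  have hx := pElt_of_mk_pCore x hg
  rw [← QuotientGroup.mk_pow, h x hx]; rfl

/-- (K1) The key step of part (a). -/
theorem keyA (hL : LinNZ.{u}) (hM : ModA.{u, u, 0}) (hS : LemSylQuot.{u}) : KeyA.{u} := by
  intro p _ G _ _ hp2 hsol hcore hA e hexp g hg
  have hp : p.Prime := Fact.out
  obtain ⟨V, iV1, iV2, iV3, ρ, hinj, hnz⟩ := hL (p := p) (G := G) hsol hcore
  have hsol' : Cfsg.IsPSolvable p (G ⧸ Cfsg.pCore p G) :=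
    Cfsg.Agent.Lib.Helper69.isPSolvable_of_surj p (QuotientGroup.mk' (Cfsg.pCore p G))
      (QuotientGroup.mk'_surjective _) hsol
  have hcore' : Cfsg.pCore p (G ⧸ Cfsg.pCore p G) = ⊥ :=
    Cfsg.Agent.Lib.Helper50.HH89.hh89_pCore_quot_eq_bot p (Cfsg.pCore p G) rfl
  have hg1 : g ^ p ^ (e + 1) = 1 := expLE_quot_pCore (e + 1) hexp g hg
  by_contra hne
  have hfd : FiniteDimensional (ZMod p) V := Module.Finite.of_finite
  obtain ⟨hferm, Q, hQ, a, ha, b, hb, hab⟩ :=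
    hM (p := p) (F := ZMod p) (H := G ⧸ Cfsg.pCore p G) (V := V) ρ g (e + 1) hp2 hsol' hcore' hinj
      (Nat.succ_le_succ (Nat.zero_le e)) hg1 (by simpa using hne) (hnz (e + 1) hexp g hg)
  rcases hA with hA | hA
  · exact hA hferm
  · have hS' := hS (G := G) (Cfsg.pCore p G) hA
    haveI : Fact (Nat.Prime 2) := ⟨Nat.prime_two⟩
    obtain ⟨S, hQS⟩ := hQ.exists_le_sylow
    have hc := hS' S
    have h1 : (⟨a, hQS ha⟩ : ↥(S : Subgroup (G ⧸ Cfsg.pCore p G))) * ⟨b, hQS hb⟩ =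
        ⟨b, hQS hb⟩ * ⟨a, hQS ha⟩ := hc.is_comm.comm _ _
    exact hab (congrArg Subtype.val h1)

/-- (K2) The key step of part (b). -/
theorem keyB (hL : LinNZ.{u}) (hM : ModB.{u, u, 0}) (hP : LemPLift.{u}) : KeyB.{u} := by
  intro p _ G _ _ hp2 hsol hcore e hexp y hy
  have hp : p.Prime := Fact.out
  obtain ⟨V, iV1, iV2, iV3, ρ, hinj, hnz⟩ := hL (p := p) (G := G) hsol hcore
  have hsol' : Cfsg.IsPSolvable p (G ⧸ Cfsg.pCore p G) :=
    Cfsg.Agent.Lib.Helper69.isPSolvable_of_surj p (QuotientGroup.mk' (Cfsg.pCore p G))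
      (QuotientGroup.mk'_surjective _) hsol
  have hcore' : Cfsg.pCore p (G ⧸ Cfsg.pCore p G) = ⊥ :=
    Cfsg.Agent.Lib.Helper50.HH89.hh89_pCore_quot_eq_bot p (Cfsg.pCore p G) rfl
  have hfd : FiniteDimensional (ZMod p) V := Module.Finite.of_finite
  -- lift `y` twice
  obtain ⟨y1, hy1, rfl⟩ := hP (p := p)
    (G := (G ⧸ Cfsg.pCore p G) ⧸ Cfsg.pPrimeCore p (G ⧸ Cfsg.pCore p G))
    (Cfsg.pCore p ((G ⧸ Cfsg.pCore p G) ⧸ Cfsg.pPrimeCore p (G ⧸ Cfsg.pCore p G))) y hy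
  obtain ⟨h, hh, rfl⟩ := hP (p := p) (G := G ⧸ Cfsg.pCore p G)
    (Cfsg.pPrimeCore p (G ⧸ Cfsg.pCore p G)) y1 hy1
  have key := hM (p := p) (F := ZMod p) (H := G ⧸ Cfsg.pCore p G) (V := V) ρ (e + 1) hp2 hsol'
    hcore' hinj (Nat.succ_le_succ (Nat.zero_le e)) (fun g hg => hnz (e + 1) hexp g hg) h hh
  rw [← QuotientGroup.mk_pow, QuotientGroup.eq_one_iff, ← QuotientGroup.mk_pow]
  simpa using key

end Cfsg.Agent.Lib.Helper47.HH86
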