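import Mathlib
import Cfsg.Agent.Lib.Helper70.HH.S3786Defs2

/-!
# S3786, package (P4) `LemPieceIndep` (helper47)

Distinct pieces of `W` are linearly independent.
-/

set_option autoImplicit false

namespace Cfsg.Agent.Lib.Helper47.HH86

open Cfsg Cfsg.Agent.Lib.Helper70.HH86

universe u v w

section

variable {F : Type w} [Field F] {H : Type u} [Group H] {V : Type v} [AddCommGroup V] [Module F V]

/-- Commutators of `Q` are central modulo the kernel on every subspace, when they are central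
in `Q`. -/
theorem cenOn_comm (ρ : Representation F H V) (Q : Subgroup H) (U : Submodule F V)
    (hcen : ∀ a ∈ Q, ∀ b ∈ Q, ∀ d ∈ Q, (a * b * a⁻¹ * b⁻¹) * d = d * (a * b * a⁻¹ * b⁻¹))
    {a b : H} (ha : a ∈ Q) (hb : b ∈ Q) : CenOn ρ Q U (a * b * a⁻¹ * b⁻¹) :=
  ⟨Q.mul_mem (Q.mul_mem (Q.mul_mem ha hb) (Q.inv_mem ha)) (Q.inv_mem hb),
    fun d hd w _ => by rw [hcen a ha b hb d hd]⟩

/-- `a ∈ Cen(U)` iff all commutators `[a, b]`, `b ∈ Q`, act trivially on `U`. -/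
theorem cenOn_iff (ρ : Representation F H V) (Q : Subgroup H) (U : Submodule F V)
    (hinv : ∀ a ∈ Q, U.map (ρ a) ≤ U) {a : H} (ha : a ∈ Q) :
    CenOn ρ Q U a ↔ ∀ b ∈ Q, ∀ w ∈ U, ρ (a * b * a⁻¹ * b⁻¹) w = w := by
  have hmem : ∀ g ∈ Q, ∀ w ∈ U, ρ g w ∈ U :=
    fun g hg w hw => hinv g hg (Submodule.mem_map_of_mem hw)
  constructor
  · rintro ⟨_, h⟩ b hb w hw
    have h1 := h b hb (ρ (b * a)⁻¹ w) (hmem _ (Q.inv_mem (Q.mul_mem hb ha)) w hw)
    have e1 : a * b * a⁻¹ * b⁻¹ = a * b * (b * a)⁻¹ := by group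
    rw [e1, map_mul, Module.End.mul_apply, h1, ← Module.End.mul_apply, ← map_mul,
      mul_inv_cancel, map_one, Module.End.one_apply]
  · intro h
    refine ⟨ha, fun b hb w hw => ?_⟩
    have h1 := h b hb (ρ (b * a) w) (hmem _ (Q.mul_mem hb ha) w hw)
    have e1 : a * b = a * b * a⁻¹ * b⁻¹ * (b * a) := by group
    rw [e1, map_mul, Module.End.mul_apply, h1]

/-- The scalar by which an endomorphism acts on a nonzero subspace is unique. -/
theorem scalar_unique_on (U : Submodule F V) (hU : U ≠ ⊥) (f : Module.End F V) {s s' : F}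
    (h : ∀ w ∈ U, f w = s • w) (h' : ∀ w ∈ U, f w = s' • w) : s = s' := by
  obtain ⟨u, hu, hu0⟩ := Submodule.exists_mem_ne_zero_of_ne_bot hU
  have h1 : (s - s') • u = 0 := by rw [sub_smul, ← h u hu, ← h' u hu, sub_self]
  rcases smul_eq_zero.1 h1 with h2 | h2
  · exact sub_eq_zero.1 h2
  · exact absurd h2 hu0

/-- If no element of `Q` separates the pieces `U1`, `U2` by its scalars, then `U2 ≤ U1`. -/
theorem piece_le_of_no_sep (ρ : Representation F H V) (Q : Subgroup H) (W U1 U2 : Submodule F V)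
    (hcen : ∀ a ∈ Q, ∀ b ∈ Q, ∀ d ∈ Q, (a * b * a⁻¹ * b⁻¹) * d = d * (a * b * a⁻¹ * b⁻¹))
    (h1 : IsPiece ρ Q W U1) (h2 : IsPiece ρ Q W U2)
    (hno : ∀ a, CenOn ρ Q U1 a → CenOn ρ Q U2 a → ∀ s1 s2 : F,
      (∀ w ∈ U1, ρ a w = s1 • w) → (∀ w ∈ U2, ρ a w = s2 • w) → s1 = s2) : U2 ≤ U1 := by
  obtain ⟨h1ne, h1W, h1inv, h1sc, h1full⟩ := h1
  obtain ⟨h2ne, h2W, h2inv, h2sc, h2full⟩ := h2
  have hC : ∀ a, CenOn ρ Q U1 a → CenOn ρ Q U2 a := by
    intro a ha
    rw [cenOn_iff ρ Q U2 h2inv ha.1]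
    intro b hb w hw
    have hc1 := cenOn_comm ρ Q U1 hcen ha.1 hb
    have hc2 := cenOn_comm ρ Q U2 hcen ha.1 hb
    obtain ⟨s1, hs1⟩ := h1sc _ hc1
    obtain ⟨s2, hs2⟩ := h2sc _ hc2
    have e := hno _ hc1 hc2 s1 s2 hs1 hs2
    have h11 : s1 = 1 := scalar_unique_on U1 h1ne (ρ (a * b * a⁻¹ * b⁻¹)) hs1
      (fun w hw => by rw [one_smul]; exact (cenOn_iff ρ Q U1 h1inv ha.1).1 ha b hb w hw)
    rw [hs2 w hw, ← e, h11, one_smul]
  intro w hw
  refine h1full w (h2W hw) ?_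
  intro a ha s hs
  obtain ⟨s2, hs2⟩ := h2sc a (hC a ha)
  rw [hs2 w hw, hno a ha (hC a ha) s s2 hs hs2]

/-- Two distinct pieces are separated by the scalars of some element of `Q`. -/
theorem exists_sep_piece (ρ : Representation F H V) (Q : Subgroup H) (W U1 U2 : Submodule F V)
    (hcen : ∀ a ∈ Q, ∀ b ∈ Q, ∀ d ∈ Q, (a * b * a⁻¹ * b⁻¹) * d = d * (a * b * a⁻¹ * b⁻¹))
    (h1 : IsPiece ρ Q W U1) (h2 : IsPiece ρ Q W U2) (hne : U1 ≠ U2) :
    ∃ a ∈ Q, ∃ s1 s2 : F, s1 ≠ s2 ∧ (∀ w ∈ U1, ρ a w = s1 • w) ∧ (∀ w ∈ U2, ρ a w = s2 • w) := by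
  by_contra hcon
  apply hne
  apply le_antisymm
  · refine piece_le_of_no_sep ρ Q W U2 U1 hcen h2 h1 ?_
    intro a ha2 ha1 s2 s1 hs2 hs1
    by_contra hs
    exact hcon ⟨a, ha1.1, s1, s2, fun h => hs h.symm, hs1, hs2⟩
  · refine piece_le_of_no_sep ρ Q W U1 U2 hcen h1 h2 ?_
    intro a ha1 ha2 s1 s2 hs1 hs2
    by_contra hs
    exact hcon ⟨a, ha1.1, s1, s2, hs, hs1, hs2⟩

end

/-- (P4) Distinct pieces are linearly independent. -/
theorem lemPieceIndep : LemPieceIndep.{u, v, w} := by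
  intro F _ H _ V _ _ ρ Q W hcen ι _ Us vs hP hinj hvs hsum
  classical
  have key : ∀ S : Finset ι, ∀ vs : ι → V, (∀ i ∈ S, vs i ∈ Us i) → ∑ i ∈ S, vs i = 0 →
      ∀ i ∈ S, vs i = 0 := by
    intro S
    induction S using Finset.induction_on with
    | empty => intro vs _ _ i hi; simp at hi
    | insert i0 S' hi0 ih =>
      intro vs hmem hsum
      rw [Finset.sum_insert hi0] at hsum
      have hS' : ∀ j ∈ S', vs j = 0 := by
        intro j hj
        have hne : Us i0 ≠ Us j := fun h => hi0 (by rw [hinj h]; exact hj)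
        obtain ⟨a, haQ, s1, s2, hs, hs1, hs2⟩ :=
          exists_sep_piece ρ Q W (Us i0) (Us j) hcen (hP i0) (hP j) hne
        have h0 := ih (fun i => ρ a (vs i) - s1 • vs i) ?_ ?_ j hj
        · have hvj := hmem j (Finset.mem_insert_of_mem hj)
          rw [hs2 _ hvj, ← sub_smul] at h0
          rcases smul_eq_zero.1 h0 with h | h
          · exact absurd (sub_eq_zero.1 h).symm hs
          · exact h
        · intro i hi
          have hvi := hmem i (Finset.mem_insert_of_mem hi)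
          have hinv := (hP i).2.2.1 a haQ
          exact (Us i).sub_mem (hinv (Submodule.mem_map_of_mem hvi)) ((Us i).smul_mem _ hvi)
        · rw [Finset.sum_sub_distrib, ← map_sum, ← Finset.smul_sum]
          have e : ∑ i ∈ S', vs i = - vs i0 := by
            rw [eq_neg_iff_add_eq_zero, add_comm]; exact hsum
          rw [e, map_neg, smul_neg, hs1 _ (hmem i0 (Finset.mem_insert_self _ _))]
          simp
      intro i hi
      rcases Finset.mem_insert.1 hi with rfl | hi'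
      · rw [Finset.sum_eq_zero hS', add_zero] at hsum; exact hsum
      · exact hS' i hi'
  exact fun i => key Finset.univ vs (fun i _ => hvs i) hsum i (Finset.mem_univ i)

end Cfsg.Agent.Lib.Helper47.HH86
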