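import Mathlib
import Cfsg.Agent.Lib.Helper70.HH.S3786Defs2

/-!
# S3786, package (A3) `LemQm` (helper47)

Group theory of `M = [Q, y] Z(Q)` in the abstract local configuration `AbsCtx`.
-/

set_option autoImplicit false

namespace Cfsg.Agent.Lib.Helper47.HH86

open Cfsg Cfsg.Agent.Lib.Helper70.HH86

universe u v w

/-- The pure group theory behind `LemQm`: `Q ⊴ Γ`, `Z ≤ Q` central in `Γ` with `Q / Z`
abelian and `Z` the full centre of `Q`; `y = x ^ m` with `y ^ p = 1`, and `p`-th roots in `Q`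
of elements of `Z` lie in `Z`. -/
theorem qm_core {Γ : Type u} [Group Γ] {p : ℕ} (Q Z : Subgroup Γ) (x z : Γ) (m : ℕ)
    (hQn : ∀ g : Γ, ∀ a ∈ Q, g * a * g⁻¹ ∈ Q)
    (hZQ : Z ≤ Q)
    (hZc : ∀ c ∈ Z, ∀ g : Γ, c * g = g * c)
    (hcl2 : ∀ a ∈ Q, ∀ b ∈ Q, a * b * a⁻¹ * b⁻¹ ∈ Z)
    (hZmem : ∀ a ∈ Q, (∀ b ∈ Q, a * b = b * a) → a ∈ Z)
    (hyp : (x ^ m) ^ p = 1)
    (hpow : ∀ a ∈ Q, a ^ p ∈ Z → a ∈ Z)
    (hzx : ∀ a ∈ Q, (z * x * z⁻¹ * x⁻¹) * a * (z * x * z⁻¹ * x⁻¹)⁻¹ * a⁻¹ ∈ Z)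
    (M : Subgroup Γ)
    (hM : M = Subgroup.closure {c : Γ | ∃ a ∈ Q, c = x ^ m * a * (x ^ m)⁻¹ * a⁻¹} ⊔ Z) :
    M ≤ Q ∧ (∀ a ∈ M, x ^ m * a * (x ^ m)⁻¹ * a⁻¹ ∈ Z → a ∈ Z) ∧
    (∀ a ∈ M, (∀ b ∈ M, a * b = b * a) → a ∈ Z) ∧
    (∀ a ∈ M, x * a * x⁻¹ ∈ M) ∧ (∀ a ∈ M, z * a * z⁻¹ ∈ M) := by
  obtain ⟨y, hy⟩ : ∃ y : Γ, y = x ^ m := ⟨_, rfl⟩
  rw [← hy] at hyp hM ⊢
  have hZn : Z.Normal := ⟨fun n hn g => by
    have h2 : g * n * g⁻¹ = n := by rw [← hZc n hn g, mul_inv_cancel_right]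
    rw [h2]; exact hn⟩
  obtain ⟨π, hπ⟩ : ∃ π : Γ →* Γ ⧸ Z, π = QuotientGroup.mk' Z := ⟨_, rfl⟩
  have hker : ∀ a : Γ, π a = 1 ↔ a ∈ Z := fun a => by
    rw [hπ]; exact QuotientGroup.eq_one_iff a
  have hcomm : ∀ a ∈ Q, ∀ b ∈ Q, π a * π b = π b * π a := by
    intro a ha b hb
    have h1 := (hker _).2 (hcl2 a ha b hb)
    simp only [map_mul, map_inv] at h1
    have h2 := congrArg (fun t => t * π b * π a) h1
    simpa [mul_assoc] using h2
  have hgenM : ∀ b ∈ Q, y * b * y⁻¹ * b⁻¹ ∈ M := by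
    intro b hb
    rw [hM]; exact Subgroup.mem_sup_left (Subgroup.subset_closure ⟨b, hb, rfl⟩)
  have hZM : Z ≤ M := by rw [hM]; exact le_sup_right
  have hMQ : M ≤ Q := by
    rw [hM]
    refine sup_le ?_ hZQ
    rw [Subgroup.closure_le]
    rintro c ⟨a, ha, rfl⟩
    exact Q.mul_mem (hQn y a ha) (Q.inv_mem ha)
  -- every element of `M` is a commutator `[b, y]` modulo `Z`
  have hA : ∀ a ∈ M, ∃ b ∈ Q, π a = π (b * y * b⁻¹ * y⁻¹) := by
    have hcomQ : ∀ b ∈ Q, b * y * b⁻¹ * y⁻¹ ∈ Q := by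
      intro b hb
      have h3 : b * y * b⁻¹ * y⁻¹ = b * (y * b⁻¹ * y⁻¹) := by group
      rw [h3]; exact Q.mul_mem hb (hQn y _ (Q.inv_mem hb))
    let M' : Subgroup Γ :=
      { carrier := {a | ∃ b ∈ Q, π a = π (b * y * b⁻¹ * y⁻¹)}
        one_mem' := ⟨1, Q.one_mem, by simp⟩
        mul_mem' := by
          rintro a1 a2 ⟨b1, hb1, h1⟩ ⟨b2, hb2, h2⟩
          refine ⟨b1 * b2, Q.mul_mem hb1 hb2, ?_⟩
          have hu := hcomQ b2 hb2
          have hv := hcomQ b1 hb1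
          have e1 : b1 * b2 * y * (b1 * b2)⁻¹ * y⁻¹ =
              b1 * (b2 * y * b2⁻¹ * y⁻¹) * b1⁻¹ * (b1 * y * b1⁻¹ * y⁻¹) := by group
          have e2 : π (b1 * (b2 * y * b2⁻¹ * y⁻¹) * b1⁻¹ * (b1 * y * b1⁻¹ * y⁻¹)) =
              π b1 * π (b2 * y * b2⁻¹ * y⁻¹) * (π b1)⁻¹ * π (b1 * y * b1⁻¹ * y⁻¹) := by
            generalize b2 * y * b2⁻¹ * y⁻¹ = u
            generalize b1 * y * b1⁻¹ * y⁻¹ = v
            simp only [map_mul, map_inv]
          rw [map_mul, h1, h2, e1, e2, hcomm b1 hb1 _ hu, mul_inv_cancel_right]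
          exact hcomm _ hv _ hu
        inv_mem' := by
          rintro a ⟨b, hb, h1⟩
          refine ⟨b⁻¹, Q.inv_mem hb, ?_⟩
          have hu : y * b * y⁻¹ * b⁻¹ ∈ Q := Q.mul_mem (hQn y b hb) (Q.inv_mem hb)
          have e1 : b⁻¹ * y * b⁻¹⁻¹ * y⁻¹ = b⁻¹ * (y * b * y⁻¹ * b⁻¹) * b := by group
          have e2 : (b * y * b⁻¹ * y⁻¹)⁻¹ = y * b * y⁻¹ * b⁻¹ := by group
          have e3 : π (b⁻¹ * (y * b * y⁻¹ * b⁻¹) * b) =
              (π b)⁻¹ * π (y * b * y⁻¹ * b⁻¹) * π b := by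
            generalize y * b * y⁻¹ * b⁻¹ = u
            simp only [map_mul, map_inv]
          rw [map_inv, h1, ← map_inv, e2, e1, e3, mul_assoc (π b)⁻¹ _ (π b), hcomm _ hu b hb,
            inv_mul_cancel_left] }
    have hle : M ≤ M' := by
      rw [hM]
      refine sup_le ?_ ?_
      · rw [Subgroup.closure_le]
        rintro c ⟨a, ha, rfl⟩
        have h1 : (a * y * a⁻¹ * y⁻¹)⁻¹ ∈ M' := M'.inv_mem ⟨a, ha, rfl⟩
        have e : (a * y * a⁻¹ * y⁻¹)⁻¹ = y * a * y⁻¹ * a⁻¹ := by group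
        rw [e] at h1; exact h1
      · intro c hc
        exact ⟨1, Q.one_mem, by simp [(hker c).2 hc]⟩
    exact fun a ha => hle ha
  -- (ii)
  have hii : ∀ a ∈ M, y * a * y⁻¹ * a⁻¹ ∈ Z → a ∈ Z := by
    intro a ha h
    obtain ⟨b, hb, hab⟩ := hA a ha
    have h1 : π (a * y) = π (b * y * b⁻¹) := by
      rw [map_mul, hab, ← map_mul]; congr 1; group
    have h2 : (π (a * y)) ^ p = 1 := by
      rw [h1, ← map_pow, conj_pow, hyp]; simp
    have h3 : Commute (π a) (π y) := by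
      have h4 := (hker _).2 h
      simp only [map_mul, map_inv] at h4
      have h5 := congrArg (fun t => t * π a * π y) h4
      have h6 : π y * π a = π a * π y := by simpa [mul_assoc] using h5
      exact h6.symm
    rw [map_mul, h3.mul_pow, ← map_pow π y, hyp, map_one, mul_one, ← map_pow] at h2
    exact hpow a (hMQ ha) ((hker _).1 h2)
  -- (iii)
  have hiii : ∀ a ∈ M, (∀ b ∈ M, a * b = b * a) → a ∈ Z := by
    intro a ha hab
    have haQ := hMQ ha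
    apply hii a ha
    have hXQ : a⁻¹ * (y⁻¹ * a * y) ∈ Q := by
      have h1 := hQn y⁻¹ a haQ
      rw [inv_inv] at h1
      exact Q.mul_mem (Q.inv_mem haQ) h1
    have key : ∀ b ∈ Q, (a⁻¹ * (y⁻¹ * a * y)) * b = b * (a⁻¹ * (y⁻¹ * a * y)) := by
      intro b hb
      have h1 := hab _ (hgenM b hb)
      obtain ⟨c, hc⟩ : ∃ c : Γ, c = a * b * a⁻¹ * b⁻¹ := ⟨_, rfl⟩
      have hcZ : c ∈ Z := by rw [hc]; exact hcl2 a haQ b hb
      have hcc := hZc c hcZ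
      -- `a b a⁻¹ = c b`
      have e1 : a * b * a⁻¹ = c * b := by rw [hc]; group
      -- `a (y b y⁻¹) a⁻¹ = c (y b y⁻¹)`
      have e2 : a * (y * b * y⁻¹) * a⁻¹ = c * (y * b * y⁻¹) := by
        have e3 : a * (y * b * y⁻¹) * a⁻¹ =
            (a * (y * b * y⁻¹ * b⁻¹) * a⁻¹) * (a * b * a⁻¹) := by group
        rw [e3, h1, mul_inv_cancel_right, e1, hcc b, ← mul_assoc, inv_mul_cancel_right,
          hcc (y * b * y⁻¹)]
      -- conjugate by `y⁻¹`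
      have e4 : (y⁻¹ * a * y) * b * (y⁻¹ * a * y)⁻¹ = c * b := by
        have e5 : (y⁻¹ * a * y) * b * (y⁻¹ * a * y)⁻¹ =
            y⁻¹ * (a * (y * b * y⁻¹) * a⁻¹) * y := by group
        rw [e5, e2, ← mul_assoc, ← hcc y⁻¹]; group
      -- conclude
      have e6 : a⁻¹ * (c * b) * a = b := by
        have e7 : c * b = a * b * a⁻¹ := e1.symm
        rw [e7]; group
      have e8 : (a⁻¹ * (y⁻¹ * a * y)) * b * (a⁻¹ * (y⁻¹ * a * y))⁻¹ = b := by
        have e9 : (a⁻¹ * (y⁻¹ * a * y)) * b * (a⁻¹ * (y⁻¹ * a * y))⁻¹ =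
            a⁻¹ * ((y⁻¹ * a * y) * b * (y⁻¹ * a * y)⁻¹) * a := by group
        rw [e9, e4, e6]
      have e10 := congrArg (fun t => t * (a⁻¹ * (y⁻¹ * a * y))) e8
      simpa [mul_assoc] using e10
    have hXZ : a⁻¹ * (y⁻¹ * a * y) ∈ Z := hZmem _ hXQ key
    -- `y a y⁻¹ a⁻¹ = y X⁻¹ y⁻¹`
    have e11 : y * a * y⁻¹ * a⁻¹ = a * (y * (a⁻¹ * (y⁻¹ * a * y))⁻¹ * y⁻¹) * a⁻¹ := by group
    rw [e11]
    exact hZn.conj_mem _ (hZn.conj_mem _ (Z.inv_mem hXZ) y) a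
  -- (iv)
  have hxy : x * y * x⁻¹ = y := by
    have h1 : Commute x y := by rw [hy]; exact (Commute.refl x).pow_right m
    rw [h1.eq, mul_inv_cancel_right]
  have hiv : ∀ a ∈ M, x * a * x⁻¹ ∈ M := by
    have hle : M ≤ M.comap (MulAut.conj x).toMonoidHom := by
      conv_lhs => rw [hM]
      refine sup_le ?_ ?_
      · rw [Subgroup.closure_le]
        rintro c ⟨b, hb, rfl⟩
        show x * (y * b * y⁻¹ * b⁻¹) * x⁻¹ ∈ M
        have e : x * (y * b * y⁻¹ * b⁻¹) * x⁻¹ =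
            (x * y * x⁻¹) * (x * b * x⁻¹) * (x * y * x⁻¹)⁻¹ * (x * b * x⁻¹)⁻¹ := by group
        rw [e, hxy]
        exact hgenM _ (hQn x b hb)
      · intro c hc
        show x * c * x⁻¹ ∈ M
        have h1 : x * c * x⁻¹ = c := by rw [← hZc c hc x, mul_inv_cancel_right]
        rw [h1]; exact hZM hc
    exact fun a ha => hle ha
  -- (v)
  have hv : ∀ a ∈ M, z * a * z⁻¹ ∈ M := by
    obtain ⟨wb, hwb⟩ : ∃ wb : Γ ⧸ Z, wb = π (z * x * z⁻¹ * x⁻¹) := ⟨_, rfl⟩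
    have hw : ∀ a ∈ Q, wb * π a * wb⁻¹ = π a := by
      intro a ha
      have h1 := (hker _).2 (hzx a ha)
      have h1' : wb * π a * wb⁻¹ * (π a)⁻¹ = 1 := by
        rw [hwb, ← h1]
        generalize z * x * z⁻¹ * x⁻¹ = W
        simp only [map_mul, map_inv]
      have h2 := congrArg (fun t => t * π a) h1'
      simpa [mul_assoc] using h2
    have hpw : ∀ n : ℕ, ∀ a ∈ Q, (wb * π x) ^ n * π a * ((wb * π x) ^ n)⁻¹ =
        π (x ^ n * a * (x ^ n)⁻¹) := by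
      intro n
      induction n with
      | zero => intro a ha; simp
      | succ n ih =>
        intro a ha
        have h1 := ih (x * a * x⁻¹) (hQn x a ha)
        have h2 := hw (x * a * x⁻¹) (hQn x a ha)
        have e1 : (wb * π x) ^ (n + 1) * π a * ((wb * π x) ^ (n + 1))⁻¹ =
            (wb * π x) ^ n * (wb * π (x * a * x⁻¹) * wb⁻¹) * ((wb * π x) ^ n)⁻¹ := by
          rw [pow_succ]; simp only [map_mul, map_inv]; group
        rw [e1, h2, h1]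
        congr 1
        rw [pow_succ]; group
    have hzy : π (z * y * z⁻¹) = (wb * π x) ^ m := by
      have e1 : z * y * z⁻¹ = (z * x * z⁻¹ * x⁻¹ * x) ^ m := by
        rw [hy, inv_mul_cancel_right, conj_pow]
      rw [e1, map_pow, map_mul, hwb]
    have hle : M ≤ M.comap (MulAut.conj z).toMonoidHom := by
      conv_lhs => rw [hM]
      refine sup_le ?_ ?_
      · rw [Subgroup.closure_le]
        rintro c ⟨b, hb, rfl⟩
        show z * (y * b * y⁻¹ * b⁻¹) * z⁻¹ ∈ M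
        have hb' := hQn z b hb
        have h1 := hpw m (z * b * z⁻¹) hb'
        rw [← hzy, ← hy] at h1
        have e : z * (y * b * y⁻¹ * b⁻¹) * z⁻¹ =
            (z * y * z⁻¹) * (z * b * z⁻¹) * (z * y * z⁻¹)⁻¹ * (z * b * z⁻¹)⁻¹ := by group
        have h2 : π (z * (y * b * y⁻¹ * b⁻¹) * z⁻¹) =
            π (y * (z * b * z⁻¹) * y⁻¹ * (z * b * z⁻¹)⁻¹) := by
          rw [e, map_mul, map_mul, map_mul, map_inv (f := π) (z * y * z⁻¹), h1, ← map_mul]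
        have h3 : (y * (z * b * z⁻¹) * y⁻¹ * (z * b * z⁻¹)⁻¹)⁻¹ *
            (z * (y * b * y⁻¹ * b⁻¹) * z⁻¹) ∈ Z := by
          rw [← hker, map_mul, map_inv, h2, inv_mul_cancel]
        have h4 : z * (y * b * y⁻¹ * b⁻¹) * z⁻¹ =
            (y * (z * b * z⁻¹) * y⁻¹ * (z * b * z⁻¹)⁻¹) *
              ((y * (z * b * z⁻¹) * y⁻¹ * (z * b * z⁻¹)⁻¹)⁻¹ *
                (z * (y * b * y⁻¹ * b⁻¹) * z⁻¹)) := by group
        rw [h4]
        exact M.mul_mem (hgenM _ hb') (hZM h3)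
      · intro c hc
        show z * c * z⁻¹ ∈ M
        have h1 : z * c * z⁻¹ = c := by rw [← hZc c hc z, mul_inv_cancel_right]
        rw [h1]; exact hZM hc
    exact fun a ha => hle ha
  exact ⟨hMQ, hii, hiii, hiv, hv⟩

/-- (A3) Group theory of `M = [Q, y] Z(Q)` in the abstract local configuration. -/
theorem lemQm : LemQm.{u, v, w} := by
  intro p q _ _ F _ _ Γ _ _ U _ _ ρ Q hQn x z k ctx
  have hp : p.Prime := Fact.out
  have hq : q.Prime := Fact.out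
  -- the centre of `Q` is central in `Γ`
  have hZc : ∀ c ∈ zq Q, ∀ g : Γ, c * g = g * c := by
    intro c hc g
    obtain ⟨s, hs⟩ := ctx.hzsc c hc
    apply ctx.hinj
    rw [map_mul, map_mul, hs, smul_mul_assoc, mul_smul_comm, one_mul, mul_one]
  have hpow : ∀ a ∈ Q, a ^ p ∈ zq Q → a ∈ zq Q := by
    intro a ha hap
    obtain ⟨j, hj⟩ := ctx.hQ ⟨a, ha⟩
    have hj' : a ^ q ^ j = 1 := by
      have := congrArg Subtype.val hj
      simpa using this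
    have hcop : p.Coprime (orderOf a) := by
      have h1 : orderOf a ∣ q ^ j := orderOf_dvd_of_pow_eq_one hj'
      have h2 : p.Coprime (q ^ j) :=
        Nat.Coprime.pow_right j ((Nat.coprime_primes hp hq).2 (Ne.symm ctx.hqp))
      exact Nat.Coprime.coprime_dvd_right h1 h2
    obtain ⟨n, hn⟩ := exists_pow_eq_self_of_coprime hcop
    rw [← hn]
    exact Subgroup.pow_mem _ hap n
  have hyp : (x ^ p ^ (k - 1)) ^ p = 1 := by
    rw [← pow_mul, ← pow_succ, Nat.sub_add_cancel ctx.hk]; exact ctx.hxk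
  exact qm_core (p := p) Q (zq Q) x z (p ^ (k - 1)) (fun g a ha => hQn.conj_mem a ha g)
    inf_le_left hZc ctx.hcl2
    (fun a ha hab => ⟨ha, Subgroup.mem_centralizer_iff.2 (fun b hb => (hab b hb).symm)⟩)
    hyp hpow ctx.hzx (qm Q (x ^ p ^ (k - 1))) rfl

end Cfsg.Agent.Lib.Helper47.HH86
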